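import Mathlib
import Cfsg.Agent.Lib.Helper6.X32.Defs

/-!
# X32 (S6002), package [COMM5]

If no element of order 5 of `GL_4(F)` has a nonzero fixed vector (and `5 ≠ 0` in `F`), then
commuting elements of order 5 generate the same subgroup.

For `g ^ 5 = 1`, `g ≠ 1` the matrix `N(g) = 1 + g + g² + g³ + g⁴` vanishes (its columns are fixed
by `g`).  If `c' ∉ ⟨c⟩`, all `c c'^j` and `c'^k` (`0 < k < 5`) are `≠ 1`, and
`0 = Σ_j N(c c'^j) = Σ_k c^k N(c'^k) = 5`.
-/

set_option autoImplicit false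

namespace Cfsg.Agent.Lib.Helper45.X32

open Cfsg.Agent.Lib.Helper6.X32
open scoped Matrix

universe u

/-- `1 + g + g² + g³ + g⁴ = 0` for a fixed-point-free element of order 5. -/
theorem comm5_norm_zero {F : Type u} [Field F]
    (hfpf : ∀ c : GL4 F, c ^ 5 = 1 → c ≠ 1 → ∀ v : I4 → F, (c : M4 F) *ᵥ v = v → v = 0)
    (g : GL4 F) (hg5 : g ^ 5 = 1) (hg1 : g ≠ 1) :
    ∑ k ∈ Finset.range 5, (g : M4 F) ^ k = 0 := by
  have hG5 : (g : M4 F) ^ 5 = 1 := by
    have h := congrArg (fun g : GL4 F => (g : M4 F)) hg5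
    simpa using h
  have hGS : (g : M4 F) * ∑ k ∈ Finset.range 5, (g : M4 F) ^ k =
      ∑ k ∈ Finset.range 5, (g : M4 F) ^ k := by
    have e : ∑ k ∈ Finset.range 5, (g : M4 F) ^ k =
        1 + (g : M4 F) + (g : M4 F) ^ 2 + (g : M4 F) ^ 3 + (g : M4 F) ^ 4 := by
      simp [Finset.sum_range_succ]
    rw [e]
    have e2 : (g : M4 F) * (1 + (g : M4 F) + (g : M4 F) ^ 2 + (g : M4 F) ^ 3 + (g : M4 F) ^ 4) =
        (g : M4 F) + (g : M4 F) ^ 2 + (g : M4 F) ^ 3 + (g : M4 F) ^ 4 + (g : M4 F) ^ 5 := by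
      noncomm_ring
    rw [e2, hG5]
    abel
  apply Matrix.mulVec_injective
  funext v
  rw [Matrix.zero_mulVec]
  apply hfpf g hg5 hg1
  rw [Matrix.mulVec_mulVec, hGS]

theorem pkgComm5 : PkgComm5.{u} := by
  intro F _ h5 hfpf c c' hc5 hc1 hc'5 hcomm
  by_contra hnot
  have hc'1 : c' ≠ 1 := by
    intro h
    apply hnot
    rw [h]
    exact Subgroup.one_mem _
  have hC : Commute c c' := hcomm
  have hpow1 : ∀ k : ℕ, 0 < k → k < 5 → c' ^ k ≠ 1 := by
    intro k hk0 hk5 h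
    have h1 : orderOf c' ∣ Nat.gcd k 5 :=
      Nat.dvd_gcd (orderOf_dvd_of_pow_eq_one h) (orderOf_dvd_of_pow_eq_one hc'5)
    have h2 : Nat.gcd k 5 = 1 := by
      interval_cases k <;> rfl
    rw [h2, Nat.dvd_one, orderOf_eq_one_iff] at h1
    exact hc'1 h1
  have hkey : ∀ j m : ℕ, j * m % 5 = 1 → c * c' ^ j = 1 → False := by
    intro j m hjm h
    apply hnot
    have h1 : c' ^ j = c⁻¹ := eq_inv_of_mul_eq_one_right h
    have h2 : c' = (c' ^ j) ^ m := by
      rw [← pow_mul, ← Nat.mod_add_div (j * m) 5, hjm, pow_add, pow_mul, hc'5, one_pow, mul_one,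
        pow_one]
    rw [h2, h1]
    exact Subgroup.pow_mem _ (Subgroup.inv_mem _ (Subgroup.mem_zpowers c)) m
  have hmix1 : ∀ j : ℕ, j < 5 → c * c' ^ j ≠ 1 := by
    intro j hj h
    interval_cases j
    · rw [pow_zero, mul_one] at h
      exact hc1 h
    · exact hkey 1 1 rfl h
    · exact hkey 2 3 rfl h
    · exact hkey 3 2 rfl h
    · exact hkey 4 4 rfl h
  have hmix5 : ∀ j : ℕ, (c * c' ^ j) ^ 5 = 1 := by
    intro j
    rw [(hC.pow_right j).mul_pow, hc5, one_mul, ← pow_mul, mul_comm, pow_mul, hc'5, one_pow]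
  have hpow5 : ∀ k : ℕ, (c' ^ k) ^ 5 = 1 := by
    intro k
    rw [← pow_mul, mul_comm, pow_mul, hc'5, one_pow]
  obtain ⟨A, hA⟩ : ∃ A : M4 F, A = (c : M4 F) := ⟨_, rfl⟩
  obtain ⟨B, hB⟩ : ∃ B : M4 F, B = (c' : M4 F) := ⟨_, rfl⟩
  have hAB : Commute A B := by
    have h := congrArg (fun g : GL4 F => (g : M4 F)) hcomm
    simp only [Units.val_mul] at h
    rw [hA, hB]
    exact h
  have hL : ∑ j ∈ Finset.range 5, ∑ k ∈ Finset.range 5, (A * B ^ j) ^ k = 0 := by
    apply Finset.sum_eq_zero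
    intro j hj
    have h := comm5_norm_zero hfpf (c * c' ^ j) (hmix5 j) (hmix1 j (Finset.mem_range.1 hj))
    rw [Units.val_mul, Units.val_pow_eq_pow_val, ← hA, ← hB] at h
    exact h
  have hswap : ∑ j ∈ Finset.range 5, ∑ k ∈ Finset.range 5, (A * B ^ j) ^ k
      = ∑ k ∈ Finset.range 5, A ^ k * ∑ j ∈ Finset.range 5, (B ^ k) ^ j := by
    rw [Finset.sum_comm]
    apply Finset.sum_congr rfl
    intro k _
    rw [Finset.mul_sum]
    apply Finset.sum_congr rfl
    intro j _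
    rw [(hAB.pow_right j).mul_pow, ← pow_mul, ← pow_mul, mul_comm j k]
  have hR : ∑ k ∈ Finset.range 5, A ^ k * ∑ j ∈ Finset.range 5, (B ^ k) ^ j
      = 5 • (1 : M4 F) := by
    rw [Finset.sum_eq_single 0]
    · simp
    · intro k hk hk0
      have h := comm5_norm_zero hfpf (c' ^ k) (hpow5 k)
        (hpow1 k (Nat.pos_of_ne_zero hk0) (Finset.mem_range.1 hk))
      rw [Units.val_pow_eq_pow_val, ← hB] at h
      rw [h, mul_zero]
    · intro h
      exact absurd (Finset.mem_range.2 (by norm_num)) h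
  rw [hswap, hR] at hL
  have h00 := congrFun (congrFun hL (Sum.inl 0)) (Sum.inl 0)
  simp at h00
  exact h5 h00

end Cfsg.Agent.Lib.Helper45.X32
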