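import Mathlib
import Cfsg.Agent.Lib.Helper6.X32.Defs

/-!
# X32 (S6002), package [FPF5]

Over the prime field `F_p` with `p` of order 4 modulo 5, an element of order 5 of `GL_4` has no
nonzero fixed vector: the fixed space `W` has `p ^ dim W ≡ p ^ 4 ≡ 1 mod 5`, so `4 ∣ dim W`.
-/

set_option autoImplicit false

namespace Cfsg.Agent.Lib.Helper45.X32

open Cfsg.Agent.Lib.Helper6.X32
open scoped Matrix

universe u

theorem pkgFpf5 : PkgFpf5.{u} := by
  intro F _ _ p _ _ hcard hord c hc5 hc1 v hv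
  classical
  by_contra hv0
  have hfact : Fact (Nat.Prime 5) := ⟨by norm_num⟩
  obtain ⟨W, hW⟩ : ∃ W : Submodule F (I4 → F), ∀ w, w ∈ W ↔ (c : M4 F) *ᵥ w = w := by
    refine ⟨LinearMap.ker (Matrix.toLin' ((c : M4 F) - 1)), fun w => ?_⟩
    rw [LinearMap.mem_ker, Matrix.toLin'_apply, Matrix.sub_mulVec, Matrix.one_mulVec, sub_eq_zero]
  obtain ⟨f, hf⟩ : ∃ f : Function.End (I4 → F), ∀ w, f w = (c : M4 F) *ᵥ w :=
    ⟨fun w => (c : M4 F) *ᵥ w, fun w => rfl⟩
  have hfpow : ∀ n : ℕ, ∀ w, (f ^ n) w = ((c : M4 F) ^ n) *ᵥ w := by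
    intro n
    induction n with
    | zero =>
      intro w
      rw [pow_zero, pow_zero, Matrix.one_mulVec]
      rfl
    | succ n ih =>
      intro w
      rw [pow_succ, pow_succ]
      show (f ^ n) (f w) = _
      rw [ih, hf, Matrix.mulVec_mulVec]
  have hc5' : (c : M4 F) ^ 5 = 1 := by
    have h := congrArg (fun g : GL4 F => (g : M4 F)) hc5
    simpa using h
  have hf5 : f ^ 5 ^ 1 = 1 := by
    funext w
    rw [pow_one, hfpow, hc5', Matrix.one_mulVec]
    rfl
  have hmod := Equiv.Perm.card_fixedPoints_modEq (f := f) (p := 5) (n := 1) hf5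
  rw [Fintype.card_eq_nat_card, Fintype.card_eq_nat_card] at hmod
  have hFc : Nat.card F = p := by
    rw [Nat.card_eq_fintype_card]
    exact hcard
  have hV : Nat.card (I4 → F) = p ^ 4 := by
    rw [Nat.card_fun, hFc]
    congr 1
    rw [Nat.card_eq_fintype_card]
    rfl
  have hWc : Nat.card (Function.fixedPoints f) = p ^ Module.finrank F W := by
    rw [← hFc, ← Module.natCard_eq_pow_finrank (K := F) (V := W)]
    apply Nat.card_congr
    exact Equiv.subtypeEquivRight (fun w => by
      rw [hW]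
      show f w = w ↔ _
      rw [hf])
  rw [hV, hWc] at hmod
  obtain ⟨d, hd⟩ : ∃ d, d = Module.finrank F W := ⟨_, rfl⟩
  rw [← hd] at hmod
  have hd4 : d ≤ 4 := by
    have h1 := Submodule.finrank_le W
    rw [Module.finrank_fintype_fun_eq_card] at h1
    have h2 : Fintype.card I4 = 4 := rfl
    omega
  have h1 : ((p : ZMod 5)) ^ 4 = (p : ZMod 5) ^ d := by
    have h := (ZMod.natCast_eq_natCast_iff _ _ 5).2 hmod
    push_cast at h
    exact h
  have h2 : (p : ZMod 5) ^ 4 = 1 := by
    have h := pow_orderOf_eq_one (p : ZMod 5)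
    rw [hord] at h
    exact h
  have h3 : 4 ∣ d := by
    have h : orderOf (p : ZMod 5) ∣ d := orderOf_dvd_of_pow_eq_one (by rw [← h1, h2])
    rw [hord] at h
    exact h
  have hd0 : d ≠ 0 := by
    intro h0
    rw [h0] at hd
    have hbot : W = ⊥ := Submodule.finrank_eq_zero.1 hd.symm
    have hvW : v ∈ W := (hW v).2 hv
    rw [hbot, Submodule.mem_bot] at hvW
    exact hv0 hvW
  have hd44 : d = 4 := by
    obtain ⟨k, hk⟩ := h3
    omega
  have htop : W = ⊤ := by
    apply Submodule.eq_top_of_finrank_eq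
    rw [← hd, hd44, Module.finrank_fintype_fun_eq_card]
    rfl
  apply hc1
  apply Units.ext
  apply Matrix.mulVec_injective
  funext w
  have hw : w ∈ W := by
    rw [htop]
    exact Submodule.mem_top
  rw [(hW w).1 hw]
  simp

end Cfsg.Agent.Lib.Helper45.X32
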