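import Mathlib
import Cfsg.Agent.Lib.Helper6.X32.Defs

/-!
# X32 (S6002), package [SYL5]

If commuting elements of order 5 of `G` generate the same subgroup, then any two elements of
order 5 of a subgroup `H` are `H`-conjugate up to a power.
-/

set_option autoImplicit false

namespace Cfsg.Agent.Lib.Helper45.X32

open Cfsg.Agent.Lib.Helper6.X32

universe u

theorem pkgSyl5 : PkgSyl5.{u} := by
  intro G _ _ H hc x hx y hy hx5 hx1 hy5 hy1
  have hfact : Fact (Nat.Prime 5) := ⟨by norm_num⟩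
  have hpz : ∀ w : H, w ^ 5 = 1 → IsPGroup 5 (Subgroup.zpowers w) := by
    intro w hw
    rintro ⟨v, hv⟩
    refine ⟨1, ?_⟩
    obtain ⟨n, rfl⟩ := Subgroup.mem_zpowers_iff.1 hv
    apply Subtype.ext
    show (w ^ n) ^ 5 ^ 1 = 1
    rw [pow_one, ← zpow_natCast, ← zpow_mul, mul_comm, zpow_mul, zpow_natCast, hw, one_zpow]
  have hx5' : (⟨x, hx⟩ : H) ^ 5 = 1 := Subtype.ext hx5
  have hy5' : (⟨y, hy⟩ : H) ^ 5 = 1 := Subtype.ext hy5
  obtain ⟨P, hP⟩ := (hpz _ hy5').exists_le_sylow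
  obtain ⟨Q, hQ⟩ := (hpz _ hx5').exists_le_sylow
  obtain ⟨g, hg⟩ := MulAction.exists_smul_eq H Q P
  have hyP : (⟨y, hy⟩ : H) ∈ (P : Subgroup H) := hP (Subgroup.mem_zpowers _)
  have hxQ : (⟨x, hx⟩ : H) ∈ (Q : Subgroup H) := hQ (Subgroup.mem_zpowers _)
  have hxP : g * ⟨x, hx⟩ * g⁻¹ ∈ (P : Subgroup H) := by
    rw [← hg, Sylow.coe_subgroup_smul]
    exact Subgroup.smul_mem_pointwise_smul _ _ _ hxQ
  have hPnt : Nontrivial (P : Subgroup H) :=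
    ⟨⟨⟨⟨y, hy⟩, hyP⟩, 1, fun h => hy1 (congrArg (fun t : (P : Subgroup H) => ((t : H) : G)) h)⟩⟩
  have hcn : Nontrivial (Subgroup.center (P : Subgroup H)) := P.isPGroup'.center_nontrivial
  obtain ⟨k, hk0, hk⟩ := (IsPGroup.nontrivial_iff_card
    (P.isPGroup'.to_subgroup (Subgroup.center (P : Subgroup H)))).1 hcn
  have hdvd : 5 ∣ Nat.card (Subgroup.center (P : Subgroup H)) := by
    rw [hk]
    exact dvd_pow_self 5 (by omega)
  obtain ⟨c, hc5⟩ := exists_prime_orderOf_dvd_card' 5 hdvd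
  obtain ⟨cG, hcG⟩ : ∃ cG : G, cG = (((c : (P : Subgroup H)) : H) : G) := ⟨_, rfl⟩
  have hcG5 : orderOf cG = 5 := by
    rw [hcG, Subgroup.orderOf_coe, Subgroup.orderOf_coe, Subgroup.orderOf_coe]
    exact hc5
  have hcGp : cG ^ 5 = 1 := by
    rw [← hcG5]
    exact pow_orderOf_eq_one cG
  have hcG1 : cG ≠ 1 := by
    intro h
    rw [h, orderOf_one] at hcG5
    omega
  have hcomm : ∀ t : H, t ∈ (P : Subgroup H) → (t : G) * cG = cG * (t : G) := by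
    intro t ht
    have h1 := Subgroup.mem_center_iff.1 c.2 ⟨t, ht⟩
    have h2 := congrArg (fun t : (P : Subgroup H) => ((t : H) : G)) h1
    rw [hcG]
    exact h2
  have h1 : y ∈ Subgroup.zpowers cG := hc cG y hcGp hcG1 hy5 (hcomm ⟨y, hy⟩ hyP).symm
  have h3 : cG ∈ Subgroup.zpowers y := hc y cG hy5 hy1 hcGp (hcomm ⟨y, hy⟩ hyP)
  have hx'5 : ((g : G) * x * (g : G)⁻¹) ^ 5 = 1 := by
    have h4 : ((g : G) * x * (g : G)⁻¹) ^ 5 = (g : G) * x ^ 5 * (g : G)⁻¹ := by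
      rw [conj_pow]
    rw [h4, hx5]
    group
  have h2 : (g : G) * x * (g : G)⁻¹ ∈ Subgroup.zpowers cG :=
    hc cG _ hcGp hcG1 hx'5 (hcomm _ hxP).symm
  have h5 : (g : G) * x * (g : G)⁻¹ ∈ Subgroup.zpowers y := (Subgroup.zpowers_le.2 h3) h2
  rw [← mem_powers_iff_mem_zpowers, Submonoid.mem_powers_iff] at h5
  obtain ⟨n, hn⟩ := h5
  refine ⟨((g⁻¹ : H) : G), (g⁻¹).2, n, ?_⟩
  rw [hn, Subgroup.coe_inv, inv_inv]

end Cfsg.Agent.Lib.Helper45.X32
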